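import Cfsg.Agent.Lib.TC.D.PA12C.Ord
import Cfsg.Agent.Lib.TC.D.PA12C.T

/-!
# The presented group on ten generators is the alternating group of degree 12
-/

namespace Cfsg.Agent.Lib.TC.D.PA12C.Main

open Cfsg.Agent.Lib.TC.Core Cfsg.Agent.Lib.TC.Enc Cfsg.Agent.Lib.TC.Pres Cfsg.Agent.Lib.TC.Perm
  Cfsg.Agent.Lib.TC.Main Cfsg.Agent.Lib.TC.Chain Cfsg.Agent.Lib.TC.Chain.PermLev
  Cfsg.Agent.Lib.TC.G.PA12 Cfsg.Agent.Lib.TC.D.PA12C.T Cfsg.Agent.Lib.TC.D.PA12C.Ord

theorem hcube : ∀ x : Fin 10, [K.col x, K.col x, K.col x] ∈ rels := by decide +kernel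

theorem of_cube (x : Fin 10) : (PresentedGroup.of x : PresentedGroup Rel) ^ 3 = 1 := by
  have h := rel_prodA_one (K := K) (R := Rel) valid hrels _ (hcube x)
  rw [prodA_cons, prodA_cons, prodA_cons, prodA_nil, Cols.E_col valid, one_mul] at h
  rw [pow_succ, pow_two]
  exact h

theorem card_alt12 : Nat.card (alternatingGroup (Fin 12)) = 239500800 := by
  have h := two_mul_nat_card_alternatingGroup (α := Fin 12)
  rw [Nat.card_perm, Nat.card_fin] at h
  have h2 : Nat.factorial 12 = 479001600 := by decide +kernel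
  omega

/-- The presented group is the alternating group. -/
theorem iso_alt : Nat.card (PresentedGroup Rel) = 239500800 ∧
    Nonempty (PresentedGroup Rel ≃* alternatingGroup (Fin 12)) := by
  have hk : pt12.k = K.k := rfl
  obtain ⟨φ, hφ⟩ := exists_hom valid hk (fun _ => rfl) hgood12 hR
  have hval : ∀ l : List Nat, (∀ z ∈ l, z < pt12.k) → ∀ i : Fin pt12.n,
      (φ (prodA (K.E Rel) l) i).1 = pt12.val l i.1 :=
    fun l hl i => phi_prodA_apply hk hgood12 φ hφ l (fun z hz => hl z hz) i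
  have : NeZero pt12.n := ⟨by decide⟩
  have htr : ∀ i : Fin pt12.n, ∃ g, φ g 0 = i := by
    intro i
    obtain ⟨l, hl, hv⟩ := hgood12.trans i.1 i.2
    refine ⟨prodA (K.E Rel) l, Fin.ext ?_⟩
    rw [hval l hl]
    exact hv
  have hr := card_range_ge hval htr levels12 hlev12
  rw [hprod12] at hr
  let φ' : PresentedGroup Rel →* Equiv.Perm (Fin 12) := φ
  have hsign : ∀ g, Equiv.Perm.sign (φ' g) = 1 := by
    have h : (Equiv.Perm.sign.comp φ' : PresentedGroup Rel →* ℤˣ) = 1 := by
      apply PresentedGroup.ext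
      intro x
      have h3 := congrArg (Equiv.Perm.sign.comp φ') (of_cube x)
      rw [map_pow, map_one] at h3
      show (Equiv.Perm.sign.comp φ') (PresentedGroup.of x) = 1
      rcases Int.units_eq_one_or ((Equiv.Perm.sign.comp φ') (PresentedGroup.of x)) with h4 | h4
      · exact h4
      · rw [h4] at h3
        exact absurd h3 (by decide)
    intro g
    exact DFunLike.congr_fun h g
  have hle : φ'.range ≤ alternatingGroup (Fin 12) := by
    rintro _ ⟨g, rfl⟩
    exact Equiv.Perm.mem_alternatingGroup.2 (hsign g)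
  have hcr : Nat.card φ'.range = 239500800 := by
    have h1 : Nat.card φ'.range ≤ Nat.card (alternatingGroup (Fin 12)) :=
      Nat.card_le_card_of_injective _ (Subgroup.inclusion_injective hle)
    rw [card_alt12] at h1
    have h2 : 12 * 19958400 ≤ Nat.card φ'.range := hr
    omega
  have heq : φ'.range = alternatingGroup (Fin 12) :=
    Subgroup.eq_of_le_of_card_ge hle (by rw [hcr, card_alt12])
  obtain ⟨h5, hinj⟩ := card_eq_of_bounds φ' card_le.1 card_le.2 (le_of_eq hcr.symm)
  refine ⟨h5, ⟨(MulEquiv.ofBijective φ'.rangeRestrict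
    ⟨MonoidHom.rangeRestrict_injective_iff.2 hinj, φ'.rangeRestrict_surjective⟩).trans
      (MulEquiv.subgroupCongr heq)⟩⟩

end Cfsg.Agent.Lib.TC.D.PA12C.Main
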