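import Cfsg.Agent.Lib.TC.D.PA12C.S3_Tab
import Cfsg.Agent.Lib.TC.D.PA12C.S3_C0

namespace Cfsg.Agent.Lib.TC.D.PA12C.S3

open Cfsg.Agent.Lib.TC.Core Cfsg.Agent.Lib.TC.Enc Cfsg.Agent.Lib.TC.Pres Cfsg.Agent.Lib.TC.Perm Cfsg.Agent.Lib.TC.Main Cfsg.Agent.Lib.TC.Chain

set_option maxRecDepth 100000

open Cfsg.Agent.Lib.TC.D.PA12C.S3_Tab Cfsg.Agent.Lib.TC.G.PA12

theorem allC0 : cert.chkRange 0 5 = true := Cfsg.Agent.Lib.TC.D.PA12C.S3_C0.ok

theorem hFinal : cert.chkFinal 0 5 = true := by decide +kernel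

theorem h0 : cert.eLvl (cert.par (cert.find cert.MAX cert.D 0)) = cert.MAX := by decide +kernel

theorem hcount : cert.countRoots cert.N = 5 := by
  rw [countRoots_eq_acc]
  decide +kernel

theorem hchecked : Checked cert where
  hN := by decide
  hC := allC0
  hF := hFinal
  h0 := h0

theorem stage : Lt (K.E Rel) ls' ≤ Lt (K.E Rel) ls ∧
    Nat.card (Lt (K.E Rel) ls) = Nat.card (Lt (K.E Rel) ls') * (Lt (K.E Rel) ls').relIndex (Lt (K.E Rel) ls) ∧
    (Lt (K.E Rel) ls').relIndex (Lt (K.E Rel) ls) ≠ 0 ∧ (Lt (K.E Rel) ls').relIndex (Lt (K.E Rel) ls) ≤ 5 :=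
  stage_of_cols valid hrels ls ls' inv' rels' subs' witT.get cert 5
    (by decide +kernel) (by decide) (by decide +kernel) (by decide +kernel) (by decide +kernel) hchecked hcount

end Cfsg.Agent.Lib.TC.D.PA12C.S3
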