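import Cfsg.Agent.Lib.TC.D.PA12C.S1
import Cfsg.Agent.Lib.TC.D.PA12C.S2
import Cfsg.Agent.Lib.TC.D.PA12C.S3
import Cfsg.Agent.Lib.TC.D.PA12C.S4
import Cfsg.Agent.Lib.TC.D.PA12C.S5
import Cfsg.Agent.Lib.TC.D.PA12C.S6
import Cfsg.Agent.Lib.TC.D.PA12C.S7
import Cfsg.Agent.Lib.TC.D.PA12C.S8
import Cfsg.Agent.Lib.TC.D.PA12C.S9
import Cfsg.Agent.Lib.TC.D.PA12C.S10

namespace Cfsg.Agent.Lib.TC.D.PA12C.Ord

open Cfsg.Agent.Lib.TC.Core Cfsg.Agent.Lib.TC.Enc Cfsg.Agent.Lib.TC.Pres Cfsg.Agent.Lib.TC.Perm Cfsg.Agent.Lib.TC.Main Cfsg.Agent.Lib.TC.Chain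

set_option maxRecDepth 100000

open Cfsg.Agent.Lib.TC.G.PA12

theorem card_le : Nat.card (PresentedGroup Rel) ≠ 0 ∧ Nat.card (PresentedGroup Rel) ≤ 239500800 := by
  have h := bound_top valid Cfsg.Agent.Lib.TC.D.PA12C.S10_Tab.ls (by decide) (bound_up Cfsg.Agent.Lib.TC.D.PA12C.S10.stage (bound_up Cfsg.Agent.Lib.TC.D.PA12C.S9.stage (bound_up Cfsg.Agent.Lib.TC.D.PA12C.S8.stage (bound_up Cfsg.Agent.Lib.TC.D.PA12C.S7.stage (bound_up Cfsg.Agent.Lib.TC.D.PA12C.S6.stage (bound_up Cfsg.Agent.Lib.TC.D.PA12C.S5.stage (bound_up Cfsg.Agent.Lib.TC.D.PA12C.S4.stage (bound_up Cfsg.Agent.Lib.TC.D.PA12C.S3.stage (bound_up Cfsg.Agent.Lib.TC.D.PA12C.S2.stage (bound_up Cfsg.Agent.Lib.TC.D.PA12C.S1.stage (bound_nil _)))))))))))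
  exact ⟨h.1, le_trans h.2 (by norm_num)⟩

end Cfsg.Agent.Lib.TC.D.PA12C.Ord
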