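import Cfsg.Agent.Lib.TC.Enc

namespace Cfsg.Agent.Lib.TC.D.PA12C.S2_T0

open Cfsg.Agent.Lib.TC.Enc

set_option maxRecDepth 100000

/-- A part of a table. -/
noncomputable def tree : Tr Nat :=
  (Tr.leaf (nat_lit 0x24002046f4b70934256c0004084e30511495b100008100ce8c06a5a40000100220088402d00))

end Cfsg.Agent.Lib.TC.D.PA12C.S2_T0
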