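import Cfsg.Agent.Lib.TC.Enc

namespace Cfsg.Agent.Lib.TC.D.PA12C.S3_T0

open Cfsg.Agent.Lib.TC.Enc

set_option maxRecDepth 100000

/-- A part of a table. -/
noncomputable def tree : Tr Nat :=
  (Tr.leaf (nat_lit 0x32001e1a7559c11643370a6cf9a24003c33aa2e82399ae4128825f400078629141c42d266022b1dc20000f0c0a5a4012cba600dc9a500001e0118024100db020805900))

end Cfsg.Agent.Lib.TC.D.PA12C.S3_T0
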