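import Cfsg.Agent.Lib.TC.Enc

namespace Cfsg.Agent.Lib.TC.D.PA12C.S4_T0

open Cfsg.Agent.Lib.TC.Enc

set_option maxRecDepth 100000

/-- A part of a table. -/
noncomputable def tree : Tr Nat :=
  (Tr.leaf (nat_lit 0x52000c08b7cb6e1952299c4b6bf6c0ad6bda8c80030224b0c90691bb22113e1974290a72012000c086db2da19b2ab6046ba2d6092a094dc00030209638246289b68109e5c7822692d460000c08039e8a02cd3a4008e468e01a4da3000003001100118602da0410075808200d200))

end Cfsg.Agent.Lib.TC.D.PA12C.S4_T0
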