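import Cfsg.Agent.Lib.TC.Enc

namespace Cfsg.Agent.Lib.TC.D.PA12C.S5_T0

open Cfsg.Agent.Lib.TC.Enc

set_option maxRecDepth 100000

/-- A part of a table. -/
noncomputable def tree : Tr Nat :=
  (Tr.leaf (nat_lit 0x390004615a2b9d10427a1cbb0da1b3d082682af40059f9fcf94800230aae5ad7022b7635b064c4295e12b54f5a02accdd646400118545ab62c1115a98a83452962808928328c144e5e26120008c29a142d00867ceb3c199d32ce0466cab340919024bc80004614468902c412a473c0c498fac02122362404478b6620000230a0249a18033a768a00ab9ba2402225e88006591a1c0000118021400881003c3018300b04040801bf0081002f400))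

end Cfsg.Agent.Lib.TC.D.PA12C.S5_T0
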